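import Cfsg.Agent.Lib.CharDeep.Winter.Crit
import Cfsg.Agent.Lib.Glauberman.Prime
import Cfsg.Agent.Lib.Glauberman.PGroup
import Cfsg.Agent.Lib.Char.Conj
import Cfsg.Agent.Lib.Char.Degree
import Cfsg.Agent.Lib.Char.Linear
import Cfsg.Agent.Lib.Char.Extend

/-!
# Degrees of characters under an automorphism of prime order

* `deg_mod`: a `σ`-invariant irreducible character has degree `≡ ±1 (mod p)` if the fixed points of
  `σ` (of prime order `p`, coprime) commute.
* `orbit_le`: a character with a non-invariant constituent has degree at least `p`.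
* `crit_deg`: the application to a faithful character and the critical configuration.
-/

set_option autoImplicit false

namespace Cfsg.Agent.Lib.CharDeep.Winter

open Subgroup Cfsg Cfsg.Agent.Lib.Char.Basic Cfsg.Agent.Lib.Char.Ortho Cfsg.Agent.Lib.Char.Complete
  Cfsg.Agent.Lib.Char.Linear Cfsg.Agent.Lib.Char.Degree
open scoped commutatorElement

universe u

variable {H : Type u} [Group H] [Finite H]

/-- The degree of a character in terms of its constituents. -/
theorem charDegree_eq_sum [Fintype (IrrCharacter H)] {ψ : H → ℂ} (hψ : IsCharacter H ψ)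
    {m : IrrCharacter H → ℕ} (hm : ψ = ∑ i, m i • (i : H → ℂ)) :
    charDegree ψ = ∑ i, m i * charDegree (i : H → ℂ) := by
  have h1 : (charDegree ψ : ℂ) = ψ 1 := charDegree_natCast hψ
  have h2 : ψ 1 = ∑ i, (m i : ℂ) * (charDegree (i : H → ℂ) : ℂ) := by
    rw [hm, Finset.sum_apply]
    refine Finset.sum_congr rfl (fun i _ => ?_)
    rw [charDegree_natCast (isCharacter_of_isIrrCharacter i.2)]
    simp
  have h3 : (charDegree ψ : ℂ) = ((∑ i, m i * charDegree (i : H → ℂ) : ℕ) : ℂ) := by
    rw [h1, h2]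
    push_cast
    rfl
  exact_mod_cast h3

/-- Glauberman correspondence: the degree modulo `p` when the fixed points commute. -/
theorem deg_mod {p : ℕ} (hp : p.Prime) {σ : MulAut H} (hσ : σ ^ p = 1)
    (hcop : Nat.Coprime p (Nat.card H)) (hC : ∀ a b : H, σ a = a → σ b = b → a * b = b * a)
    (θ : IrrCharacter H) (hθ : (θ : H → ℂ) ∘ σ = θ) :
    ∃ K ε : ℤ, (ε = 1 ∨ ε = -1) ∧ (charDegree (θ : H → ℂ) : ℤ) = p * K + ε := by
  classical
  letI : Fintype H := Fintype.ofFinite H
  let C : Subgroup H := Cfsg.Agent.Lib.Glauberman.PGroup.fixSub σ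
  letI : Fintype C := Fintype.ofFinite C
  obtain ⟨π, hπ⟩ := Cfsg.Agent.Lib.Glauberman.Prime.prime_corr hp hσ hcop (C := C) (fun g => Iff.rfl)
  obtain ⟨ε, hε, k, hk⟩ := hπ ⟨θ, hθ⟩
  haveI : Finite (IrrCharacter C) := finite_irrCharacter
  letI : Fintype (IrrCharacter C) := Fintype.ofFinite _
  have hres : IsCharacter C (fun c : C => (θ : H → ℂ) c) :=
    isCharacter_restrict C (isCharacter_of_isIrrCharacter θ.2)
  obtain ⟨m, hm⟩ := exists_nat_combination hres
  have hm2 : ∀ γ, (m γ : ℤ) = p * k γ + if γ = π ⟨θ, hθ⟩ then ε else 0 := by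
    intro γ
    have h1 := hk γ
    have h2 := classInner_of_nat_combination m γ
    rw [← hm] at h2
    simp only at h1
    rw [h2] at h1
    exact_mod_cast h1
  have hcomm : ∀ a b : C, a * b = b * a := by
    intro a b
    apply Subtype.ext
    exact hC _ _ a.2 b.2
  have hγ1 : ∀ γ : IrrCharacter C, charDegree (γ : C → ℂ) = 1 := fun γ =>
    charDegree_eq_of_eq_natCast (by simpa using isIrr_deg_one_of_comm hcomm γ.2)
  have hdeg := charDegree_eq_sum hres hm
  simp only [hγ1, mul_one] at hdeg
  have hdeg2 : charDegree (fun c : C => (θ : H → ℂ) c) = charDegree (θ : H → ℂ) := by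
    unfold charDegree
    simp
  rw [hdeg2] at hdeg
  refine ⟨∑ γ, k γ, ε, hε, ?_⟩
  rw [hdeg]
  push_cast
  rw [Finset.sum_congr rfl (fun γ _ => hm2 γ), Finset.sum_add_distrib, Finset.mul_sum]
  simp

/-- The orbit of a non-invariant constituent. -/
theorem orbit_le [Fintype H] {p : ℕ} (hp : p.Prime) {σ : MulAut H} (hσ : σ ^ p = 1)
    {ψ : H → ℂ} (hψ : IsCharacter H ψ) (hψσ : ψ ∘ σ = ψ) (θ : IrrCharacter H)
    (hθ : classInner ψ (θ : H → ℂ) ≠ 0) (hθσ : (θ : H → ℂ) ∘ σ ≠ θ) : p ≤ charDegree ψ := by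
  classical
  haveI : Finite (IrrCharacter H) := finite_irrCharacter
  letI : Fintype (IrrCharacter H) := Fintype.ofFinite _
  obtain ⟨m, hm⟩ := exists_nat_combination hψ
  have hinner : ∀ i : IrrCharacter H, classInner ψ (i : H → ℂ) = m i := by
    intro i
    rw [hm]
    exact classInner_of_nat_combination m i
  let τ : IrrCharacter H → IrrCharacter H := fun i =>
    ⟨(i : H → ℂ) ∘ σ, Cfsg.Agent.Lib.Char.Conj.isIrrCharacter_comp_mulEquiv σ i.2⟩
  have hτm : ∀ i, m (τ i) = m i := by
    intro i
    have h1 : classInner ψ ((τ i : IrrCharacter H) : H → ℂ) = classInner ψ (i : H → ℂ) := by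
      have h2 := Cfsg.Agent.Lib.Char.Conj.classInner_comp_mulEquiv σ ψ (i : H → ℂ)
      rw [hψσ] at h2
      exact h2
    rw [hinner, hinner] at h1
    exact_mod_cast h1
  have hτinj : Function.Injective τ := by
    intro a b hab
    apply Subtype.ext
    funext x
    have h1 := congrFun (congrArg Subtype.val hab) (σ.symm x)
    simpa [τ] using h1
  have hiter : ∀ (i : ℕ) (x : IrrCharacter H), ((τ^[i] x : IrrCharacter H) : H → ℂ) = (x : H → ℂ) ∘ (σ ^ i : MulAut H) := by
    intro i
    induction i with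
    | zero =>
      intro x
      funext g
      simp
    | succ i ih =>
      intro x
      rw [Function.iterate_succ_apply', pow_succ]
      funext g
      change ((τ^[i] x : IrrCharacter H) : H → ℂ) (σ g) = _
      rw [ih]
      rfl
  have hper : Function.IsPeriodicPt τ p θ := by
    apply Subtype.ext
    change ((τ^[p] θ : IrrCharacter H) : H → ℂ) = θ
    rw [hiter, hσ]
    rfl
  let g : Fin p → IrrCharacter H := fun j => τ^[(j : ℕ)] θ
  have hginj : Function.Injective g := by
    intro a b hab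
    by_contra hne
    have hne' : (a : ℕ) ≠ b := fun h => hne (Fin.ext h)
    wlog hlt : (a : ℕ) < b generalizing a b
    · exact this hab.symm (fun h => hne h.symm) (Ne.symm hne') (by omega)
    have h1 : τ^[(a : ℕ)] (τ^[(b : ℕ) - a] θ) = τ^[(a : ℕ)] θ := by
      rw [← Function.iterate_add_apply]
      have : (a : ℕ) + ((b : ℕ) - a) = b := by omega
      rw [this]
      exact hab.symm
    have h2 : τ^[(b : ℕ) - a] θ = θ := (hτinj.iterate _) h1
    have h3 : Function.IsPeriodicPt τ ((b : ℕ) - a) θ := h2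
    have h4 := h3.gcd hper
    have hcop : Nat.gcd ((b : ℕ) - a) p = 1 := by
      have h5 : Nat.Coprime p ((b : ℕ) - a) := by
        apply (Nat.Prime.coprime_iff_not_dvd hp).mpr
        intro h6
        have := Nat.le_of_dvd (by omega) h6
        have := b.2
        omega
      exact h5.symm
    rw [hcop] at h4
    apply hθσ
    have h5 : τ θ = θ := h4
    exact congrArg Subtype.val h5
  have hgm : ∀ j, m (g j) = m θ := by
    intro j
    change m (τ^[(j : ℕ)] θ) = m θ
    induction (j : ℕ) with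
    | zero => rfl
    | succ i ih =>
      rw [Function.iterate_succ_apply', hτm, ih]
  have hθm : 0 < m θ := by
    rw [hinner] at hθ
    apply Nat.pos_of_ne_zero
    intro h
    apply hθ
    rw [h]
    simp
  rw [charDegree_eq_sum hψ hm]
  calc p = ∑ _j : Fin p, 1 := by simp
    _ ≤ ∑ j : Fin p, m (g j) * charDegree ((g j : IrrCharacter H) : H → ℂ) := by
        apply Finset.sum_le_sum
        intro j _
        rw [hgm]
        exact Nat.mul_pos hθm (charDegree_pos (g j).2)
    _ = ∑ i ∈ Finset.univ.image g, m i * charDegree (i : H → ℂ) := by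
        rw [Finset.sum_image (fun a _ b _ h => hginj h)]
    _ ≤ ∑ i, m i * charDegree (i : H → ℂ) :=
        Finset.sum_le_sum_of_subset (Finset.subset_univ _)

variable {G : Type u} [Group G] [Finite G]

/-- Conjugation by an element of the normalizer. -/
def conjAut (Q : Subgroup G) (y : G) (hy : y ∈ normalizer (Q : Set G)) : Q ≃* Q where
  toFun g := ⟨y * g * y⁻¹, (mem_normalizer_iff.mp hy g).mp g.2⟩
  invFun g := ⟨y⁻¹ * g * y, by
    have h1 : y * (y⁻¹ * (g : G) * y) * y⁻¹ ∈ Q := by
      have : y * (y⁻¹ * (g : G) * y) * y⁻¹ = g := by group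
      rw [this]
      exact g.2
    exact (mem_normalizer_iff.mp hy _).mpr h1⟩
  left_inv g := by
    apply Subtype.ext
    simp [mul_assoc]
  right_inv g := by
    apply Subtype.ext
    simp [mul_assoc]
  map_mul' a b := by
    apply Subtype.ext
    simp [mul_assoc]

theorem conjAut_coe (Q : Subgroup G) (y : G) (hy : y ∈ normalizer (Q : Set G)) (g : Q) :
    ((conjAut Q y hy g : Q) : G) = y * g * y⁻¹ := rfl

theorem conjAut_pow_coe (Q : Subgroup G) (y : G) (hy : y ∈ normalizer (Q : Set G)) (k : ℕ) (g : Q) :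
    ((((conjAut Q y hy : MulAut Q) ^ k) g : Q) : G) = y ^ k * g * (y ^ k)⁻¹ := by
  induction k generalizing g with
  | zero => simp
  | succ k ih =>
    rw [pow_succ, MulAut.mul_apply, ih, conjAut_coe, pow_succ]
    group

/-- The main degree bound: a faithful character in the critical configuration. -/
theorem crit_deg {p q : ℕ} (hp : p.Prime) (hq : q.Prime) (hqp : q ≠ p) {Q : Subgroup G} {y : G}
    (hQ : IsPGroup q Q) (hyN : y ∈ normalizer (Q : Set G))
    (hyp : ∀ h ∈ Q, y ^ p * h = h * y ^ p) (hcomm : ⁅Q, zpowers y⁆ = Q) (hbot : Q ≠ ⊥)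
    (hC : ∀ c ∈ Q, c * y = y * c → ∀ h ∈ Q, c * h = h * c)
    {χ : G → ℂ} (hχ : IsCharacter G χ) (hfaith : ∀ g : G, χ g = χ 1 → g = 1) :
    p ≤ charDegree χ ∨ ∃ (_ : Fintype Q) (θ : IrrCharacter Q),
      classInner (fun h : Q => χ h) (θ : Q → ℂ) ≠ 0 ∧ 1 < charDegree (θ : Q → ℂ) ∧
      ∃ K ε : ℤ, (ε = 1 ∨ ε = -1) ∧ (charDegree (θ : Q → ℂ) : ℤ) = p * K + ε := by
  classical
  letI instQ : Fintype Q := Fintype.ofFinite Q
  haveI : Finite (IrrCharacter Q) := finite_irrCharacter
  letI : Fintype (IrrCharacter Q) := Fintype.ofFinite _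
  let σ : MulAut Q := conjAut Q y hyN
  let ψ : Q → ℂ := fun h => χ h
  have hψ : IsCharacter Q ψ := isCharacter_restrict Q hχ
  have hclass := isClassFunction_of_isCharacter hχ
  have hψσ : ψ ∘ σ = ψ := by
    funext h
    change χ (y * h * y⁻¹) = χ h
    exact hclass _ _
  have hσp : σ ^ p = 1 := by
    apply MulEquiv.ext
    intro g
    apply Subtype.ext
    rw [conjAut_pow_coe, hyp _ g.2]
    simp
  have hcop : Nat.Coprime p (Nat.card Q) := by
    haveI : Fact q.Prime := ⟨hq⟩
    obtain ⟨a, ha⟩ := IsPGroup.iff_card.mp hQ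
    rw [ha]
    exact Nat.Coprime.pow_right _ ((Nat.coprime_primes hp hq).mpr hqp.symm)
  obtain ⟨m, hm⟩ := exists_nat_combination hψ
  have hinner : ∀ i : IrrCharacter Q, classInner ψ (i : Q → ℂ) = m i := by
    intro i
    rw [hm]
    exact classInner_of_nat_combination m i
  have hdeg : charDegree ψ = charDegree χ := by
    unfold charDegree
    simp [ψ]
  by_cases hinv : ∃ θ : IrrCharacter Q, classInner ψ (θ : Q → ℂ) ≠ 0 ∧ (θ : Q → ℂ) ∘ σ ≠ θ
  · obtain ⟨θ, h1, h2⟩ := hinv
    left
    rw [← hdeg]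
    exact orbit_le hp hσp hψ hψσ θ h1 h2
  right
  push Not at hinv
  -- a nonlinear constituent
  have hnl : ∃ θ : IrrCharacter Q, classInner ψ (θ : Q → ℂ) ≠ 0 ∧ 1 < charDegree (θ : Q → ℂ) := by
    by_contra hcon
    push Not at hcon
    -- the action on `Q` is trivial
    have hfix : ∀ h : Q, y * (h : G) * y⁻¹ * (h : G)⁻¹ = 1 := by
      intro h
      apply hfaith
      have hval : ∀ i : IrrCharacter Q, m i • ((i : Q → ℂ) (σ h * h⁻¹)) = m i • ((i : Q → ℂ) 1) := by
        intro i
        by_cases hi : m i = 0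
        · simp [hi]
        have hi' : classInner ψ (i : Q → ℂ) ≠ 0 := by
          rw [hinner]
          exact_mod_cast hi
        have hd1 : charDegree (i : Q → ℂ) = 1 := by
          have h1 := hcon i hi'
          have h2 := charDegree_pos i.2
          omega
        have hi1 : (i : Q → ℂ) 1 = 1 := by
          have h1 := charDegree_natCast (isCharacter_of_isIrrCharacter i.2)
          rw [hd1] at h1
          simpa using h1.symm
        have hmul := deg_one_mul (isCharacter_of_isIrrCharacter i.2) hi1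
        have hinvi : (i : Q → ℂ) ∘ σ = i := hinv i hi'
        have h3 : (i : Q → ℂ) (σ h) = (i : Q → ℂ) h := congrFun hinvi h
        have h4 : (i : Q → ℂ) (σ h * h⁻¹) = (i : Q → ℂ) 1 := by
          rw [hmul, h3, ← hmul, mul_inv_cancel]
        rw [h4]
      have h5 : ψ (σ h * h⁻¹) = ψ 1 := by
        rw [hm]
        simp only [Finset.sum_apply, Pi.smul_apply]
        exact Finset.sum_congr rfl (fun i _ => hval i)
      exact h5
    apply hbot
    rw [← hcomm, Subgroup.commutator_eq_bot_iff_le_centralizer]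
    intro b hb
    rw [Subgroup.mem_centralizer_iff]
    intro w hw
    obtain ⟨i, rfl⟩ := Subgroup.mem_zpowers_iff.mp hw
    have h1 : y * b * y⁻¹ * b⁻¹ = 1 := hfix ⟨b, hb⟩
    have h2 : b * y = y * b := by
      have h3 : y * b * y⁻¹ = b := mul_inv_eq_one.mp h1
      calc b * y = (y * b * y⁻¹) * y := by rw [h3]
        _ = y * b := by group
    exact ((Commute.zpow_left (Commute.symm h2) i).eq)
  obtain ⟨θ, hθ1, hθ2⟩ := hnl
  refine ⟨instQ, θ, hθ1, hθ2, ?_⟩
  refine deg_mod hp hσp hcop ?_ θ (hinv θ hθ1)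
  intro a b ha hb
  have ha' : (a : G) * y = y * a := by
    have h1 : y * (a : G) * y⁻¹ = a := congrArg Subtype.val ha
    calc (a : G) * y = (y * a * y⁻¹) * y := by rw [h1]
      _ = y * a := by group
  apply Subtype.ext
  exact hC a a.2 ha' b b.2

end Cfsg.Agent.Lib.CharDeep.Winter
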