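import Cfsg.Agent.Lib.Char.Complete
import Cfsg.Agent.Lib.Char.Linear
import Cfsg.Agent.Lib.Char.Degree
import Cfsg.Agent.Lib.Char.Central
import Cfsg.Agent.Lib.PGroups.Basic

/-!
# A central commutator in a non-abelian Sylow subgroup when the degree is less than `2 p`
-/

set_option autoImplicit false
set_option linter.unusedSectionVars false

namespace Cfsg.Agent.Lib.CharDeep.Winter

open Module Cfsg Subgroup Cfsg.Agent.Lib.Char.Basic Cfsg.Agent.Lib.Char.Ortho
  Cfsg.Agent.Lib.Char.Complete Cfsg.Agent.Lib.Char.Linear Cfsg.Agent.Lib.Char.Degree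
open scoped commutatorElement

universe u

variable {G : Type u} [Group G] [Finite G]

theorem exists_element {χ : G → ℂ} (hχ : IsCharacter G χ) (hfaith : ∀ g, χ g = χ 1 → g = 1)
    {n p : ℕ} [hp : Fact p.Prime] (hn : χ 1 = n) (h2p : n < 2 * p) (P : Subgroup G)
    (hP : IsPGroup p P) (hnc : ∃ x ∈ P, ∃ y ∈ P, x * y ≠ y * x) :
    ∃ z : G, z ^ p = 1 ∧ p ≤ n ∧ ∀ t : ℕ, χ (z ^ t) =
      (p : ℂ) * Complex.exp (2 * Real.pi * Complex.I / p) ^ t + ((n : ℂ) - p) := by
  classical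
  have hpp : p.Prime := hp.out
  letI : Fintype P := Fintype.ofFinite P
  haveI := finite_irrCharacter (G := P)
  letI instI : Fintype (IrrCharacter P) := Fintype.ofFinite _
  have hψ : IsCharacter P (fun g : P => χ g) := isCharacter_restrict P hχ
  obtain ⟨m, hm⟩ := exists_nat_combination hψ
  have hval : ∀ g : P, χ g = ∑ i, (m i : ℂ) * i.1 g := by
    intro g
    have := congrFun hm g
    rw [this]
    simp [Finset.sum_apply]
  let N : Subgroup P := commutator P
  have hNbot : N ≠ ⊥ := by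
    intro h
    obtain ⟨x, hx, y, hy, hxy⟩ := hnc
    apply hxy
    have h1 : ⁅(⟨x, hx⟩ : P), ⟨y, hy⟩⁆ ∈ N := Subgroup.commutator_mem_commutator (mem_top _) (mem_top _)
    rw [h, Subgroup.mem_bot] at h1
    have h2 := commutatorElement_eq_one_iff_mul_comm.mp h1
    exact congrArg Subtype.val h2
  obtain ⟨z₀, hz₀N, hz₀Z, hz₀o⟩ :=
    Cfsg.Agent.Lib.PGroups.Basic.exists_central_orderOf_eq hP N hNbot
  have hz₀p : z₀ ^ p = 1 := by rw [← hz₀o, pow_orderOf_eq_one]
  have hsc : ∀ i : IrrCharacter P, ∃ ω : ℂ, ω ^ p = 1 ∧ (∀ k : ℕ, i.1 (z₀ ^ k) = i.1 1 * ω ^ k) ∧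
      (i.1 1 = 1 → ω = 1) := by
    intro i
    have hi1 := irr_one_ne_zero i.2
    have hic := isCharacter_of_isIrrCharacter i.2
    obtain ⟨d, ρ, hρ, hρi⟩ := i.2
    haveI := hρ
    obtain ⟨ω, hω⟩ := Cfsg.Agent.Lib.Char.Central.center_acts_scalar ρ z₀ hz₀Z
    have htr : ∀ k : ℕ, ρ.character (z₀ ^ k) = ρ.character 1 * ω ^ k := by
      intro k
      have h1 : ρ (z₀ ^ k) = ω ^ k • (1 : End ℂ (Fin d → ℂ)) := by
        rw [map_pow, hω, smul_pow, one_pow]
      simp only [Representation.character, h1, map_smul, map_one, smul_eq_mul]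
      ring
    rw [← hρi] at hi1 hic ⊢
    refine ⟨ω, ?_, htr, ?_⟩
    · have h1 := htr p
      rw [hz₀p] at h1
      have h2 : ρ.character 1 * 1 = ρ.character 1 * ω ^ p := by rw [mul_one]; exact h1
      exact (mul_left_cancel₀ hi1 h2).symm
    · intro h1
      obtain ⟨l, hl⟩ := exists_hom_of_deg_one hic h1
      have hker : N ≤ l.ker := by
        apply (Subgroup.commutator_le).mpr
        intro a _ b _
        rw [MonoidHom.mem_ker, map_commutatorElement, commutatorElement_eq_one_iff_mul_comm]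
        exact mul_comm _ _
      have h2 : l z₀ = 1 := hker hz₀N
      have h3 : ρ.character z₀ = 1 := by
        rw [hl]
        simp [h2]
      have h4 := htr 1
      rw [pow_one, pow_one, h3, h1, one_mul] at h4
      exact h4.symm
  choose ω hωp hωv hω1 using hsc
  let deg : IrrCharacter P → ℕ := fun i => charDegree i.1
  have hdeg : ∀ i, (deg i : ℂ) = i.1 1 := fun i =>
    charDegree_natCast (isCharacter_of_isIrrCharacter i.2)
  obtain ⟨e, he⟩ := IsPGroup.iff_card.mp hP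
  have hdvd : ∀ i, ∃ j, deg i = p ^ j := by
    intro i
    have h1 := charDegree_dvd_card i.2
    rw [he] at h1
    obtain ⟨j, -, hj⟩ := (Nat.dvd_prime_pow hpp).mp h1
    exact ⟨j, hj⟩
  have hnsum : n = ∑ i, m i * deg i := by
    have h1 := hval 1
    rw [Subgroup.coe_one, hn] at h1
    have h2 : (n : ℂ) = ((∑ i, m i * deg i : ℕ) : ℂ) := by
      rw [h1]
      push_cast
      exact Finset.sum_congr rfl fun i _ => by rw [hdeg]
    exact_mod_cast h2
  have hzval : ∀ k : ℕ, χ ((z₀ ^ k : P) : G) = ∑ i, (m i : ℂ) * (deg i : ℂ) * ω i ^ k := by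
    intro k
    rw [hval]
    refine Finset.sum_congr rfl fun i _ => ?_
    rw [hωv, hdeg]
    ring
  obtain ⟨i₀, hi₀m, hi₀ω⟩ : ∃ i, m i ≠ 0 ∧ ω i ≠ 1 := by
    by_contra hcon
    push Not at hcon
    have h1 : χ ((z₀ ^ 1 : P) : G) = χ ((z₀ ^ 0 : P) : G) := by
      rw [hzval, hzval]
      refine Finset.sum_congr rfl fun i _ => ?_
      by_cases hi : m i = 0
      · simp [hi]
      · rw [hcon i hi]
        simp
    rw [pow_one, pow_zero, Subgroup.coe_one] at h1
    have h2 := hfaith _ h1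
    have h3 : z₀ = 1 := Subtype.ext h2
    rw [h3, orderOf_one] at hz₀o
    exact hpp.one_lt.ne hz₀o
  have hdeg1 : ∀ i, ω i ≠ 1 → p ≤ deg i := by
    intro i hi
    obtain ⟨j, hj⟩ := hdvd i
    rcases Nat.eq_zero_or_pos j with rfl | hjpos
    · exfalso
      apply hi
      apply hω1
      rw [← hdeg, hj]
      simp
    · rw [hj]
      calc p = p ^ 1 := (pow_one p).symm
        _ ≤ p ^ j := Nat.pow_le_pow_right hpp.pos hjpos
  have hsplit : ∑ i, m i * deg i = m i₀ * deg i₀ + ∑ i ∈ Finset.univ.erase i₀, m i * deg i :=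
    (Finset.add_sum_erase _ _ (Finset.mem_univ i₀)).symm
  have hd₀ := hdeg1 i₀ hi₀ω
  have hmpos : 1 ≤ m i₀ := Nat.pos_of_ne_zero hi₀m
  have hge : deg i₀ ≤ m i₀ * deg i₀ := Nat.le_mul_of_pos_left _ hmpos
  have hm1 : m i₀ = 1 := by
    by_contra hne
    have h1 : 2 ≤ m i₀ := by omega
    have h2 : 2 * deg i₀ ≤ m i₀ * deg i₀ := Nat.mul_le_mul_right _ h1
    omega
  have hdp : deg i₀ = p := by
    obtain ⟨j, hj⟩ := hdvd i₀
    rw [hm1, one_mul] at hsplit
    have h1 : deg i₀ < 2 * p := by omega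
    rcases Nat.lt_or_ge j 2 with h | h
    · interval_cases j
      · rw [hj] at hd₀
        have := hpp.one_lt
        simp at hd₀
        omega
      · rw [hj, pow_one]
    · exfalso
      have h2 : p ^ 2 ≤ p ^ j := Nat.pow_le_pow_right hpp.pos h
      rw [hj] at h1
      have := hpp.two_le
      nlinarith
  have hpn : p ≤ n := by
    rw [hnsum, hsplit]
    rw [hm1, one_mul, hdp]
    exact Nat.le_add_right _ _
  have hothers : ∀ i ∈ Finset.univ.erase i₀, m i ≠ 0 → ω i = 1 := by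
    intro i hi hmi
    by_contra hne
    have h1 := hdeg1 i hne
    have h2 : m i * deg i ≤ ∑ i ∈ Finset.univ.erase i₀, m i * deg i :=
      Finset.single_le_sum (f := fun i => m i * deg i) (fun _ _ => Nat.zero_le _) hi
    have h3 : deg i ≤ m i * deg i := Nat.le_mul_of_pos_left _ (Nat.pos_of_ne_zero hmi)
    rw [hm1, one_mul, hdp] at hsplit
    omega
  have hrest : ∑ i ∈ Finset.univ.erase i₀, m i * deg i = n - p := by
    rw [hnsum, hsplit, hm1, one_mul, hdp, Nat.add_sub_cancel_left]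
  have hform : ∀ k : ℕ, χ ((z₀ ^ k : P) : G) = (p : ℂ) * ω i₀ ^ k + ((n : ℂ) - p) := by
    intro k
    rw [hzval, ← Finset.add_sum_erase _ _ (Finset.mem_univ i₀), hm1, hdp]
    congr 1
    · simp
    · have h1 : ∑ i ∈ Finset.univ.erase i₀, (m i : ℂ) * (deg i : ℂ) * ω i ^ k =
          ((∑ i ∈ Finset.univ.erase i₀, m i * deg i : ℕ) : ℂ) := by
        push_cast
        refine Finset.sum_congr rfl fun i hi => ?_
        by_cases hmi : m i = 0
        · simp [hmi]
        · rw [hothers i hi hmi]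
          simp
      rw [h1, hrest, Nat.cast_sub hpn]
  have hord : orderOf (ω i₀) = p := orderOf_eq_prime (hωp i₀) hi₀ω
  have hprim : IsPrimitiveRoot (ω i₀) p := hord ▸ IsPrimitiveRoot.orderOf _
  have hζ := Complex.isPrimitiveRoot_exp p hpp.ne_zero
  haveI : NeZero p := ⟨hpp.ne_zero⟩
  obtain ⟨k₀, -, hk₀⟩ := hprim.eq_pow_of_pow_eq_one hζ.pow_eq_one
  refine ⟨((z₀ ^ k₀ : P) : G), ?_, hpn, ?_⟩
  · have h1 : (z₀ ^ k₀) ^ p = 1 := by
      rw [← pow_mul, mul_comm, pow_mul, hz₀p, one_pow]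
    exact congrArg Subtype.val h1
  · intro t
    have h1 : (((z₀ ^ k₀ : P) : G)) ^ t = ((z₀ ^ (k₀ * t) : P) : G) := by
      rw [pow_mul]
      rfl
    rw [h1, hform, pow_mul, hk₀]

end Cfsg.Agent.Lib.CharDeep.Winter
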