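import Cfsg.Agent.Lib.CharDeep.Winter.Near
import Cfsg.Agent.Lib.CharDeep.Winter.PPart
import Cfsg.Agent.Lib.Char.CliffordCorr

/-!
# The monomial structure in Winter's theorem on degrees below `2 p`
-/

set_option autoImplicit false
set_option linter.unusedSectionVars false

namespace Cfsg.Agent.Lib.CharDeep.Winter

open Module Cfsg Subgroup Cfsg.Agent.Lib.Char.Basic Cfsg.Agent.Lib.Char.Ortho
  Cfsg.Agent.Lib.Char.Complete Cfsg.Agent.Lib.Char.Linear Cfsg.Agent.Lib.Char.Degree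
  Cfsg.Agent.Lib.Char.Conj Cfsg.Agent.Lib.Char.Clifford Cfsg.Agent.Lib.Char.CliffordCorr
open scoped commutatorElement

universe u

theorem not_sq_dvd_factorial {n p : ℕ} [hp : Fact p.Prime] (h2p : n < 2 * p) (h2 : 2 ≤ p) :
    ¬ p ^ 2 ∣ n.factorial := by
  intro h
  have hlt : n < p ^ 2 := by nlinarith
  have hlog : Nat.log p n < 2 := Nat.log_lt_of_lt_pow' (by norm_num) hlt
  have h1 := padicValNat_factorial (p := p) hlog
  have h3 := (padicValNat_dvd_iff_le (p := p) (Nat.factorial_ne_zero n)).mp h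
  rw [h1] at h3
  simp only [Nat.Ico_succ_singleton, Finset.sum_singleton, pow_one] at h3
  have h4 : n / p < 2 := by
    rw [Nat.div_lt_iff_lt_mul hp.out.pos]
    omega
  omega

variable {G : Type u} [Group G] [Fintype G]

/-- The monomial structure. -/
theorem mono_structure {χ : G → ℂ} (hχ : IsIrrCharacter G χ) (hfaith : ∀ g, χ g = χ 1 → g = 1)
    {n p : ℕ} [hp : Fact p.Prime] (hn : χ 1 = n) (hpn : p < n) (h2p : n < 2 * p)
    (A : Subgroup G) (hAn : A.Normal) (hAc : ∀ x ∈ A, ∀ y ∈ A, x * y = y * x) {z : G}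
    (hzA : z ∈ A) (hz : z ^ p = 1)
    (hvals : ∀ t : ℕ, χ (z ^ t) =
      (p : ℂ) * Complex.exp (2 * Real.pi * Complex.I / p) ^ t + ((n : ℂ) - p)) :
    ∃ K : Subgroup G, K.Normal ∧ (∀ x ∈ K, ∀ y ∈ K, x * y = y * x) ∧
      ∀ P : Subgroup G, IsPGroup p P → K.relIndex P ∣ p := by
  classical
  have hpp : p.Prime := hp.out
  letI instA : Fintype A := Fintype.ofFinite A
  have hcomm : ∀ a b : A, a * b = b * a := fun a b => Subtype.ext (hAc a a.2 b b.2)
  have hχc := isCharacter_of_isIrrCharacter hχ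
  have hχ0 : χ 1 ≠ 0 := irr_one_ne_zero hχ
  have hAchar : IsCharacter A (fun a : A => χ a) := isCharacter_restrict A hχc
  have hres : IsClassFunction A (fun a : A => χ a) := isClassFunction_of_isCharacter hAchar
  have hresne : (fun a : A => χ a) ≠ 0 := by
    intro h
    have := congrFun h 1
    simp only [OneMemClass.coe_one, Pi.zero_apply] at this
    exact hχ0 this
  obtain ⟨lam, hlam, hcon⟩ := exists_irr_constituent hres hresne
  have hcl := clifford_restrict hAn hχ hlam hcon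
  obtain ⟨e, he⟩ := exists_nat_classInner hAchar (isCharacter_of_isIrrCharacter hlam)
  rw [he] at hcl
  set Ω := orbitFinset hAn lam with hΩ
  have hΩirr : ∀ ψ ∈ Ω, IsIrrCharacter A ψ := by
    intro ψ hψ
    obtain ⟨g, rfl⟩ := (mem_orbitFinset hAn lam ψ).mp hψ
    exact isIrrCharacter_conjOn hAn g hlam
  have hΩ1 : ∀ ψ ∈ Ω, ψ 1 = 1 := fun ψ hψ => isIrr_deg_one_of_comm hcomm (hΩirr ψ hψ)
  have hΩmul : ∀ ψ ∈ Ω, ∀ a b : A, ψ (a * b) = ψ a * ψ b := fun ψ hψ a b =>
    deg_one_mul (isCharacter_of_isIrrCharacter (hΩirr ψ hψ)) (hΩ1 ψ hψ) a b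
  have hΩpow : ∀ ψ ∈ Ω, ∀ (a : A) (t : ℕ), ψ (a ^ t) = ψ a ^ t := by
    intro ψ hψ a t
    induction t with
    | zero => simp [hΩ1 ψ hψ]
    | succ t ih => rw [pow_succ, hΩmul ψ hψ, ih, pow_succ]
  let z' : A := ⟨z, hzA⟩
  have hsumz : ∀ t : ℕ, ∑ ψ ∈ Ω, (e : ℂ) * ψ z' ^ t =
      (p : ℂ) * Complex.exp (2 * Real.pi * Complex.I / p) ^ t + ((n : ℂ) - p) := by
    intro t
    rw [← hvals t]
    have h1 := congrFun hcl (z' ^ t)
    have h2 : ((z' ^ t : A) : G) = z ^ t := rfl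
    simp only [h2, Pi.smul_apply, Finset.sum_apply, smul_eq_mul] at h1
    rw [h1, Finset.mul_sum]
    refine Finset.sum_congr rfl fun ψ hψ => ?_
    rw [hΩpow ψ hψ]
  set ζ : ℂ := Complex.exp (2 * Real.pi * Complex.I / p) with hζ
  have hζp : ζ ^ p = 1 := (Complex.isPrimitiveRoot_exp p hpp.ne_zero).pow_eq_one
  have hζ1 : ζ ≠ 1 := (Complex.isPrimitiveRoot_exp p hpp.ne_zero).ne_one hpp.one_lt
  have hzp : ∀ ψ ∈ Ω, ψ z' ^ p = 1 := by
    intro ψ hψ
    rw [← hΩpow ψ hψ]
    have h1 : z' ^ p = 1 := Subtype.ext hz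
    rw [h1, hΩ1 ψ hψ]
  have hcount := fun μ (hμ : μ ^ p = 1) => count_of_power_sums hpp.pos Ω (fun _ => (e : ℂ))
    (fun ψ => ψ z') hzp hζp (p : ℂ) ((n : ℂ) - p) hsumz hμ
  have hfilter : ∀ μ : ℂ, (∑ ψ ∈ Ω, if ψ z' = μ then (e : ℂ) else 0) =
      ((e * (Ω.filter fun ψ => ψ z' = μ).card : ℕ) : ℂ) := by
    intro μ
    rw [← Finset.sum_filter, Finset.sum_const, nsmul_eq_mul]
    push_cast
    ring
  have h1 := hcount ζ hζp
  rw [hfilter, if_pos rfl, if_neg (Ne.symm hζ1), add_zero] at h1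
  have h2 := hcount 1 (one_pow p)
  rw [hfilter, if_neg hζ1, if_pos rfl, zero_add] at h2
  have h1' : e * (Ω.filter fun ψ => ψ z' = ζ).card = p := by exact_mod_cast h1
  have h2' : e * (Ω.filter fun ψ => ψ z' = 1).card = n - p := by
    have h3 : ((e * (Ω.filter fun ψ => ψ z' = 1).card : ℕ) : ℂ) = ((n - p : ℕ) : ℂ) := by
      rw [h2, Nat.cast_sub hpn.le]
    exact_mod_cast h3
  have he1 : e = 1 := by
    have h3 : e ∣ p := ⟨_, h1'.symm⟩
    rcases (Nat.dvd_prime hpp).mp h3 with h4 | h4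
    · exact h4
    · exfalso
      have h5 : e ∣ n - p := ⟨_, h2'.symm⟩
      rw [h4] at h5
      have h6 := Nat.le_of_dvd (by omega) h5
      omega
  subst he1
  have hcl1 : ∀ a : A, χ a = ∑ ψ ∈ Ω, ψ a := by
    intro a
    have h3 := congrFun hcl a
    simpa [Finset.sum_apply] using h3
  have hcardΩ : Ω.card = n := by
    have h3 := hcl1 1
    rw [Subgroup.coe_one, hn, Finset.sum_congr rfl hΩ1] at h3
    simp only [Finset.sum_const, nsmul_eq_mul, mul_one] at h3
    exact_mod_cast h3.symm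
  -- the action on the constituents
  have hsmulmem : ∀ (g : G) (ψ : A → ℂ), ψ ∈ Ω → conjOn hAn g ψ ∈ Ω := by
    intro g ψ hψ
    obtain ⟨h, rfl⟩ := (mem_orbitFinset hAn lam ψ).mp hψ
    exact (mem_orbitFinset hAn lam _).mpr ⟨h * g, conjOn_mul hAn h g lam⟩
  letI instX : MulAction G Ω :=
    { smul := fun g ψ => ⟨conjOn hAn g⁻¹ ψ.1, hsmulmem _ _ ψ.2⟩
      one_smul := fun ψ => Subtype.ext (by
        change conjOn hAn 1⁻¹ ψ.1 = ψ.1
        rw [inv_one, conjOn_one])
      mul_smul := fun g g' ψ => Subtype.ext (by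
        change conjOn hAn (g * g')⁻¹ ψ.1 = conjOn hAn g⁻¹ (conjOn hAn g'⁻¹ ψ.1)
        rw [mul_inv_rev, conjOn_mul]) }
  let f : G →* Equiv.Perm Ω := MulAction.toPermHom G Ω
  let K : Subgroup G := f.ker
  have hKmem : ∀ g ∈ K, ∀ ψ ∈ Ω, conjOn hAn g⁻¹ ψ = ψ := by
    intro g hg ψ hψ
    have h3 : f g = 1 := hg
    have h4 := congrArg (fun F : Equiv.Perm Ω => (F ⟨ψ, hψ⟩ : Ω).1) h3
    exact h4
  have hKmem' : ∀ g ∈ K, ∀ ψ ∈ Ω, conjOn hAn g ψ = ψ := by
    intro g hg ψ hψ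
    have := hKmem g⁻¹ (K.inv_mem hg) ψ hψ
    rwa [inv_inv] at this
  have hAK : A ≤ K := by
    intro a ha
    change f a = 1
    ext ψ
    change conjOn hAn a⁻¹ ψ.1 _ = ψ.1 _
    rw [conjOn_of_mem hAn (isClassFunction_of_isCharacter
      (isCharacter_of_isIrrCharacter (hΩirr ψ.1 ψ.2))) (A.inv_mem ha)]
  have hmult : ∀ ψ : A → ℂ, IsIrrCharacter A ψ →
      classInner (fun a : A => χ a) ψ = if ψ ∈ Ω then 1 else 0 := by
    intro ψ hψ
    have h3 : (fun a : A => χ a) = ∑ ψ' ∈ Ω, ψ' := by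
      funext a
      rw [hcl1 a]
      simp [Finset.sum_apply]
    rw [h3, classInner_sum_left]
    have h4 : ∀ ψ' ∈ Ω, classInner ψ' ψ = if ψ' = ψ then 1 else 0 := fun ψ' hψ' =>
      classInner_irr (hΩirr ψ' hψ') hψ
    rw [Finset.sum_congr rfl h4, Finset.sum_ite_eq']
  letI instK : Fintype K := Fintype.ofFinite K
  have hKchar : IsCharacter K (fun k : K => χ k) := isCharacter_restrict K hχc
  have hlin : ∀ θ : K → ℂ, IsIrrCharacter K θ → classInner (fun k : K => χ k) θ ≠ 0 → θ 1 = 1 := by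
    intro θ hθ hθcon
    have hθc := isCharacter_of_isIrrCharacter hθ
    have hθ0 := irr_one_ne_zero hθ
    have hrc : IsCharacter A (res hAK θ) := isCharacter_comp (Subgroup.inclusion hAK) hθc
    have hrcl : IsClassFunction A (res hAK θ) := isClassFunction_of_isCharacter hrc
    have hrne : res hAK θ ≠ 0 := by
      intro h
      have h3 := congrFun h 1
      exact hθ0 h3
    obtain ⟨ψ, hψ, hψcon⟩ := exists_irr_constituent hrcl hrne
    have hψc := isCharacter_of_isIrrCharacter hψ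
    have hmono := classInner_ne_zero_mono (Subgroup.inclusion hAK) hKchar hθ hθcon hψc hψcon
    have hψΩ : ψ ∈ Ω := by
      by_contra hnot
      apply hmono
      have h3 := hmult ψ hψ
      rw [if_neg hnot] at h3
      exact h3
    have hscal := restrict_eq_smul_of_invariant hAn hAK hψ
      (fun t ht => hKmem' t ht ψ hψΩ) hθ hψcon
    obtain ⟨f₀, hf₀⟩ := exists_nat_classInner hrc hψc
    have hsub := isCharacter_sub_of_classInner_ne_zero hKchar hθ hθcon
    have hsubr := isCharacter_comp (Subgroup.inclusion hAK) hsub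
    obtain ⟨g₀, hg₀⟩ := exists_nat_classInner hsubr hψc
    have hadd : (fun a : A => χ a) = res hAK θ + ((fun k : K => χ k) - θ) ∘ Subgroup.inclusion hAK := by
      funext a
      change χ a = θ ⟨a, hAK a.2⟩ + (χ a - θ ⟨a, hAK a.2⟩)
      ring
    have h3 := hmult ψ hψ
    rw [if_pos hψΩ, hadd, classInner_add_left, hf₀, hg₀] at h3
    have h4 : f₀ + g₀ = 1 := by exact_mod_cast h3
    have hf₀0 : f₀ ≠ 0 := by
      intro h
      apply hψcon
      rw [hf₀, h]
      simp
    have hf₀1 : f₀ = 1 := by omega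
    rw [hf₀, hf₀1] at hscal
    have h5 := congrFun hscal 1
    simp only [Nat.cast_one, one_smul] at h5
    rw [hΩ1 ψ hψΩ] at h5
    exact h5
  haveI hfi := finite_irrCharacter (G := K)
  letI instI : Fintype (IrrCharacter K) := Fintype.ofFinite _
  obtain ⟨m, hm⟩ := exists_nat_combination hKchar
  have hval : ∀ k : K, χ k = ∑ i, (m i : ℂ) * i.1 k := by
    intro k
    have := congrFun hm k
    rw [this]
    simp [Finset.sum_apply]
  have hKc : ∀ x ∈ K, ∀ y ∈ K, x * y = y * x := by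
    intro x hx y hy
    let x' : K := ⟨x, hx⟩
    let y' : K := ⟨y, hy⟩
    have hi : ∀ i : IrrCharacter K, m i ≠ 0 → i.1 ⁅x', y'⁆ = i.1 1 := by
      intro i hmi
      have h3 : classInner (fun k : K => χ k) i.1 ≠ 0 := by
        rw [hm, classInner_of_nat_combination]
        exact_mod_cast hmi
      have h4 := hlin i.1 i.2 h3
      obtain ⟨l, hl⟩ := exists_hom_of_deg_one (isCharacter_of_isIrrCharacter i.2) h4
      have h5 : l ⁅x', y'⁆ = 1 := by
        rw [map_commutatorElement, commutatorElement_eq_one_iff_mul_comm]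
        exact mul_comm _ _
      rw [h4, hl]
      simp [h5]
    have h3 : χ ((⁅x', y'⁆ : K) : G) = χ ((1 : K) : G) := by
      rw [hval, hval]
      refine Finset.sum_congr rfl fun i _ => ?_
      by_cases hmi : m i = 0
      · simp [hmi]
      · rw [hi i hmi]
    have h4 := hfaith _ (by simpa using h3)
    have h5 : ⁅x', y'⁆ = 1 := Subtype.ext h4
    have h6 := commutatorElement_eq_one_iff_mul_comm.mp h5
    exact congrArg Subtype.val h6
  refine ⟨K, f.normal_ker, hKc, fun P hP => ?_⟩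
  have h3 : K.relIndex P = Nat.card (P.map f) := Subgroup.relIndex_ker P f
  rw [h3]
  have hmap : IsPGroup p (P.map f) := hP.map f
  obtain ⟨j, hj⟩ := IsPGroup.iff_card.mp hmap
  have hdvdperm : Nat.card (P.map f) ∣ n.factorial := by
    have h4 := Subgroup.card_subgroup_dvd_card (P.map f)
    rw [Nat.card_perm] at h4
    have h5 : Nat.card Ω = n := by
      rw [Nat.card_eq_fintype_card, Fintype.card_coe, hcardΩ]
    rwa [h5] at h4
  rw [hj] at hdvdperm ⊢
  have hj1 : j ≤ 1 := by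
    by_contra hne
    have h4 : p ^ 2 ∣ p ^ j := pow_dvd_pow p (by omega)
    exact not_sq_dvd_factorial h2p hpp.two_le (h4.trans hdvdperm)
  calc p ^ j ∣ p ^ 1 := pow_dvd_pow p hj1
    _ = p := pow_one p

end Cfsg.Agent.Lib.CharDeep.Winter
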