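import Cfsg.Agent.Lib.LinGroup.Jordan
import Cfsg.Agent.Lib.Char.Eigen

/-!
# Elements with two close eigenvalues lie in an abelian normal subgroup
-/

set_option autoImplicit false
set_option linter.unusedSectionVars false

namespace Cfsg.Agent.Lib.CharDeep.Winter

open Module Cfsg Cfsg.Agent.Lib.LinGroup
open scoped Matrix.Norms.L2Operator MatrixOrder ComplexOrder

universe u

/-- Geometric sums of roots of unity. -/
theorem sum_geom_root {p : ℕ} (hp : 0 < p) {ξ : ℂ} (hξ : ξ ^ p = 1) :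
    ∑ m ∈ Finset.range p, ξ ^ m = if ξ = 1 then (p : ℂ) else 0 := by
  split_ifs with h
  · subst h
    simp
  · have h1 := geom_sum_mul ξ p
    rw [hξ, sub_self] at h1
    exact (mul_eq_zero.mp h1).resolve_right (sub_ne_zero.mpr h)

/-- Fourier inversion on `p`-th roots of unity. -/
theorem fourier {ι : Type*} {p : ℕ} (hp : 0 < p) (s : Finset ι) (a c : ι → ℂ)
    (hc : ∀ i ∈ s, c i ^ p = 1) {μ : ℂ} (hμ : μ ^ p = 1) :
    ∑ m ∈ Finset.range p, μ⁻¹ ^ m * ∑ i ∈ s, a i * c i ^ m =
      p * ∑ i ∈ s, if c i = μ then a i else 0 := by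
  classical
  have hμ0 : μ ≠ 0 := by
    intro h
    rw [h, zero_pow hp.ne'] at hμ
    exact zero_ne_one hμ
  simp only [Finset.mul_sum]
  rw [Finset.sum_comm]
  refine Finset.sum_congr rfl fun i hi => ?_
  have h1 : ∀ m, μ⁻¹ ^ m * (a i * c i ^ m) = a i * (μ⁻¹ * c i) ^ m := by
    intro m
    rw [mul_pow]
    ring
  simp only [h1]
  rw [← Finset.mul_sum, sum_geom_root hp (by rw [mul_pow, inv_pow, hμ, hc i hi]; simp)]
  by_cases h2 : c i = μ
  · rw [if_pos h2, if_pos (by rw [h2]; exact inv_mul_cancel₀ hμ0)]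
    ring
  · rw [if_neg h2, if_neg (fun h3 => h2 (by
      have := congrArg (fun w => μ * w) h3
      simpa [hμ0] using this))]
    simp

/-- Counting roots of unity from power sums of a fixed shape. -/
theorem count_of_power_sums {ι : Type*} {p : ℕ} (hp : 0 < p) (s : Finset ι) (a c : ι → ℂ)
    (hc : ∀ i ∈ s, c i ^ p = 1) {ζ : ℂ} (hζ : ζ ^ p = 1) (x y : ℂ)
    (h : ∀ m : ℕ, ∑ i ∈ s, a i * c i ^ m = x * ζ ^ m + y) {μ : ℂ} (hμ : μ ^ p = 1) :
    (∑ i ∈ s, if c i = μ then a i else 0) = (if ζ = μ then x else 0) + if 1 = μ then y else 0 := by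
  classical
  have h1 := fourier hp s a c hc hμ
  have h2 := fourier hp (Finset.univ : Finset Bool) (fun b => if b then x else y)
    (fun b => if b then ζ else 1) (by
      intro b _
      cases b
      · simp
      · simpa using hζ) hμ
  have h3 : ∀ m, ∑ b : Bool, (if b then x else y) * (if b then ζ else 1) ^ m = x * ζ ^ m + y := by
    intro m
    simp [Fintype.sum_bool]
  simp only [h3, h] at h1 h2
  have hp0 : (p : ℂ) ≠ 0 := Nat.cast_ne_zero.mpr hp.ne'
  have h4 := h1.symm.trans h2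
  have h5 := mul_left_cancel₀ hp0 h4
  rw [h5]
  simp [Fintype.sum_bool]

variable {G : Type u} [Group G] [Finite G]

/-- A criterion in terms of power sums of the character. -/
theorem exists_abelian_normal_mem {d : ℕ} (ρ : Representation ℂ G (Fin d → ℂ))
    (hf : ∀ g, ρ g = 1 → g = 1) {p : ℕ} (h7 : 7 ≤ p) (z : G) (hz : z ^ p = 1) (y : ℂ)
    (hvals : ∀ m : ℕ, ρ.character (z ^ m) =
      (p : ℂ) * Complex.exp (2 * Real.pi * Complex.I / p) ^ m + y) :
    ∃ A : Subgroup G, A.Normal ∧ (∀ x ∈ A, ∀ y ∈ A, x * y = y * x) ∧ z ∈ A := by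
  classical
  have hp0 : 0 < p := by omega
  obtain ⟨U, S, hU, hUS⟩ := exists_unitary ρ
  have hcontr : ∀ g, ‖U g‖ ≤ 1 := fun g => norm_le_one_of_unitary (hU g).1
  have hinj : ∀ g, U g = 1 → g = 1 := by
    intro g hg
    apply hf
    have h1 : LinearMap.toMatrix' (ρ g) = 1 := by
      have h2 := hUS g
      rw [hg] at h2
      have h3 : ((S⁻¹ : (Mat d)ˣ) : Mat d) * (1 : Mat d) * (S : Mat d) =
          LinearMap.toMatrix' (ρ g) := by
        rw [h2]
        simp only [mul_assoc, Units.inv_mul, mul_one]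
        rw [← mul_assoc, Units.inv_mul, one_mul]
      rw [← h3]
      simp
    have h4 : LinearMap.toMatrix' (ρ g) = LinearMap.toMatrix' (LinearMap.id : (Fin d → ℂ) →ₗ[ℂ] _) := by
      rw [h1, LinearMap.toMatrix'_id]
    exact LinearMap.toMatrix'.injective h4
  have hspec : ∀ g, spectrum ℂ (U g) = spectrum ℂ (ρ g) := by
    intro g
    rw [hUS g, spectrum.units_conjugate]
    rw [← Matrix.spectrum_toLin', Matrix.toLin'_toMatrix']
  set ζ : ℂ := Complex.exp (2 * Real.pi * Complex.I / p) with hζ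
  have hζp : ζ ^ p = 1 := (Complex.isPrimitiveRoot_exp p hp0.ne').pow_eq_one
  obtain ⟨b, μ, hb, hμ⟩ := Cfsg.Agent.Lib.Char.Eigen.exists_eigenbasis ρ z
  have hμp : ∀ i, μ i ^ p = 1 := by
    intro i
    obtain ⟨c, hc⟩ := orderOf_dvd_of_pow_eq_one hz
    rw [hc, pow_mul, hμ i, one_pow]
  have hsums : ∀ m : ℕ, ∑ i, (1 : ℂ) * μ i ^ m = (p : ℂ) * ζ ^ m + y := by
    intro m
    rw [← hvals m, Cfsg.Agent.Lib.Char.Eigen.character_pow_eq_sum_of_eigenbasis ρ b μ hb m]
    simp
  have hμval : ∀ i, μ i = ζ ∨ μ i = 1 := by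
    intro i
    have h1 := count_of_power_sums hp0 Finset.univ (fun _ => (1 : ℂ)) μ (fun i _ => hμp i) hζp
      (p : ℂ) y hsums (hμp i)
    by_contra hcon
    push Not at hcon
    rw [if_neg (fun h => hcon.1 h.symm), if_neg (fun h => hcon.2 h.symm), add_zero] at h1
    have h2 : (∑ j, if μ j = μ i then (1 : ℂ) else 0) =
        ((Finset.univ.filter fun j => μ j = μ i).card : ℂ) := by
      rw [Finset.card_filter]
      push_cast
      rfl
    rw [h2] at h1
    have h3 : (Finset.univ.filter fun j => μ j = μ i).card = 0 := by exact_mod_cast h1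
    rw [Finset.card_eq_zero] at h3
    have h4 : i ∈ Finset.univ.filter fun j => μ j = μ i := by simp
    rw [h3] at h4
    simp at h4
  -- the centre of the arc
  set α : ℂ := Complex.exp (Real.pi * Complex.I / p) with hα
  have hα2 : ζ = α * α := by
    rw [hα, ← Complex.exp_add, hζ]
    congr 1
    ring
  have hαnorm : ‖α‖ = 1 := by
    rw [hα]
    have : (Real.pi * Complex.I / p : ℂ) = ((Real.pi / p : ℝ) : ℂ) * Complex.I := by
      push_cast
      ring
    rw [this]
    exact Complex.norm_exp_ofReal_mul_I _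
  have hα1 : ‖(1 : ℂ) - α‖ < 1 / 2 := by
    have h1 : α = Complex.exp (Complex.I * ((Real.pi / p : ℝ) : ℂ)) := by
      rw [hα]
      congr 1
      push_cast
      ring
    have h2 := Real.norm_exp_I_mul_ofReal_sub_one_le (x := Real.pi / p)
    rw [← h1, norm_sub_rev] at h2
    refine lt_of_le_of_lt h2 ?_
    rw [Real.norm_of_nonneg (by positivity)]
    have hp7 : (7 : ℝ) ≤ p := by exact_mod_cast h7
    have hpi := Real.pi_lt_d2
    rw [div_lt_iff₀ (by positivity)]
    nlinarith
  have hαζ : ‖ζ - α‖ < 1 / 2 := by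
    have h1 : ζ - α = α * (α - 1) := by
      rw [hα2]
      ring
    rw [h1, norm_mul, hαnorm, one_mul, norm_sub_rev]
    exact hα1
  have hnear : IsNearScalar U z := by
    refine ⟨α, norm_sub_lt_of_spectrum (hU z).1 (hU z).2 α (by norm_num) ?_⟩
    intro c hc
    rw [hspec] at hc
    obtain ⟨i, hi⟩ := exists_eq_of_mem_spectrum (ρ z) b μ hb hc
    rw [← hi]
    rcases hμval i with h | h
    · rw [h]
      exact hαζ
    · rw [h]
      exact hα1
  exact ⟨nearScalarSubgroup U, nearScalarSubgroup_normal U hcontr,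
    nearScalarSubgroup_comm U hcontr hinj, mem_nearScalarSubgroup_of U hnear⟩

end Cfsg.Agent.Lib.CharDeep.Winter
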